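import Cfsg.Agent.Lib.FT.Short.Singular
import Cfsg.Agent.Lib.PFLocal.Dade
import Cfsg.Agent.Lib.BGSigma.Alpha

/-!
Local facts for the short route, from the local analysis data: S1390 for a member of type II.
-/

set_option autoImplicit false
set_option linter.style.haveILetI false
set_option linter.unusedSectionVars false

namespace CfsgLib.FT.Short

open CfsgLib.BGMainTypes (IsTypeIWeak typeAW typeA0W)

open Cfsg CfsgLib.BGUniqueness CfsgLib.BGSigma CfsgLib.BGAppendix CfsgLib.PFLocal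
open scoped commutatorElement

universe u

variable {G : Type u} [Group G] [Finite G] {M W₁ U W₂ : Subgroup G}

/-- The primes of `σ(M)` divide `|M_σ|`. -/
theorem dvd_sigmaCore_of_mem_sigma (hG : IsMinSimpleOddOrder G) (hM : IsCoatom M) {p : ℕ}
    (hp : p ∈ sigma M) : p ∣ Nat.card (sigmaCore M) := by
  obtain ⟨hle, -, hnd⟩ := BGSigma.isPiHallOf_sigmaCore hG hM
  have h := Subgroup.relIndex_mul_relIndex ⊥ (sigmaCore M) M bot_le hle
  rw [Subgroup.relIndex_bot_left, Subgroup.relIndex_bot_left] at h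
  exact (hp.1.dvd_mul.1 (h ▸ hp.2.1)).resolve_right (hnd p hp.1 hp)

/-- For type II the primes of `|U|` lie outside `σ(M)`. -/
theorem not_mem_sigma_of_dvd_U (hG : IsMinSimpleOddOrder G) (B : BGData G) (hM : IsCoatom M)
    (hII : IsOfTypeII M) (hP : IsTypePWith M W₁ U W₂) {q : ℕ} (hq : q.Prime)
    (hd : q ∣ Nat.card U) : q ∉ sigma M := fun hσ => by
  have h1 := dvd_sigmaCore_of_mem_sigma hG hM hσ
  rw [← fittingHallOf_eq_of_typeI_or_II B hM (Or.inr hII)] at h1
  exact hq.ne_one (Nat.eq_one_of_dvd_coprimes ((PF9.coprime_F_UW hP).coprime_dvd_right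
    (Subgroup.card_dvd_of_le le_sup_left)) h1 hd)

/-- Part of S1390 for type II: the Sylow subgroups of `U` have rank at most two. -/
theorem rank_U_of_typeII (hG : IsMinSimpleOddOrder G) (B : BGData G) (hM : IsCoatom M)
    (hII : IsOfTypeII M) (hP : IsTypePWith M W₁ U W₂) (r : ℕ) (hr : r.Prime) (P : Sylow r U) :
    PRankLE r 2 (P : Subgroup U) := by
  haveI := Fact.mk hr
  by_cases hd : r ∣ Nat.card U
  · have hα : r ∉ alpha M := fun h =>
      not_mem_sigma_of_dvd_U hG B hM hII hP hr hd (alpha_subset_sigma hG hM h)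
    exact pRankLE_of_injective
      (f := (Subgroup.inclusion (PF9.U_le hP)).comp (P : Subgroup U).subtype)
      ((Subgroup.inclusion_injective (PF9.U_le hP)).comp (Subgroup.subtype_injective _))
      (pRankLE_of_not_mem_alpha hr hα)
  · intro A _ _
    have h1 : Nat.card (P : Subgroup U) = 1 := by
      obtain ⟨n, hn⟩ := IsPGroup.iff_card.mp P.isPGroup'
      rcases Nat.eq_zero_or_pos n with h0 | h0
      · rw [hn, h0, pow_zero]
      · exact absurd ((dvd_pow_self r h0.ne').trans (hn ▸ Subgroup.card_subgroup_dvd_card _)) hd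
    have h2 := Nat.le_of_dvd Nat.card_pos (Subgroup.card_subgroup_dvd_card A)
    rw [h1] at h2
    exact h2.trans (Nat.one_le_pow _ _ hr.pos)

/-- Part of S1390 for type II: centralizers of singular elements of `U` lie in `M` only. -/
theorem uniqueOverSingular_of_typeII (hG : IsMinSimpleOddOrder G) (B : BGData G)
    (hM : IsCoatom M) (hII : IsOfTypeII M) (hP : IsTypePWith M W₁ U W₂) :
    UniqueOverSingular M U := by
  rintro u hu ⟨hu1, x, hx, hx1, hux⟩
  have hσ : ∀ q : ℕ, q.Prime → q ∣ orderOf u → q ∉ sigma M := fun q hq hd =>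
    not_mem_sigma_of_dvd_U hG B hM hII hP hq (hd.trans (Subgroup.orderOf_dvd_natCard _ hu))
  rcases B.s1432 M hM x (fittingHallOf_eq_of_typeI_or_II B hM (Or.inr hII) ▸ hx) hx1 u
      ⟨PF9.U_le hP hu, Subgroup.mem_centralizer_singleton_iff.2 hux⟩ hu1 hσ
      with ⟨hk, -⟩ | ⟨-, -, h⟩
  · exfalso
    obtain ⟨K, U₀, hd⟩ := exists_decomp B hM
    have hK : K ≠ ⊥ := ((B.s1381 M hM K U₀ hd).1 hII).1
    have hm : u ∈ U₀ ⊔ sigmaCore M := (B.s1365 M hM K U₀ hd hK).1 ▸ PF9.U_le_derived hP hu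
    obtain ⟨q, hq, hqd⟩ := Nat.exists_prime_and_dvd (mt orderOf_eq_one_iff.1 hu1)
    exact ((mem_sup_compl_iff hG hM hd).1 hm).2 q hq hqd (hk q hq hqd)
  · exact h

end CfsgLib.FT.Short
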