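import Cfsg.Agent.Lib.FT.Short.Group
import Cfsg.Agent.Lib.FT.Short.RowChar
import Cfsg.Agent.Lib.FT.PF9.Count
import Cfsg.Agent.Lib.FT.PF13B.Linear
import Cfsg.Agent.Lib.Brauer.Dual
import Cfsg.Agent.Lib.Brauer.IndCalc
import Cfsg.Agent.Lib.Coherence.WDual

/-!
A class function on a subgroup of type P with fixed-point-free complement in `M'` and abelian
kernel, supported on the kernel and taking the same inner product with all the induced characters
of least degree, is constant on the non-identity elements of the kernel.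
-/

set_option autoImplicit false
set_option linter.style.haveILetI false
set_option linter.unusedSectionVars false

open Cfsg CfsgLib.BGAppendix CfsgLib.CharTheory
open CfsgLib.FT.PF9 (derivedIn calS)

namespace CfsgLib.FT.Short

universe u

variable {G : Type u} [Group G] [Fintype G] {M W₁ U W₂ : Subgroup G}

theorem eq_on_F_of_inner [Fintype M] (hP : IsTypePWith M W₁ U W₂)
    (hF : ∀ x ∈ fittingHallOf M, ∀ y ∈ fittingHallOf M, x * y = y * x)
    (hfpf : ∀ u ∈ U, u ≠ 1 → ∀ x ∈ fittingHallOf M, u * x = x * u → x = 1)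
    {f : M → ℂ} (hf : IsClassFunction M f) {c : ℂ}
    (hinner : ∀ μ ∈ calS M (⊥ : Subgroup G),
      μ 1 = ((Nat.card W₁ * Nat.card U : ℕ) : ℂ) → classInner f μ = c)
    {x y : M} (hx : (x : G) ∈ fittingHallOf M) (hx1 : x ≠ 1) (hy : (y : G) ∈ fittingHallOf M)
    (hy1 : y ≠ 1) : f x = f y := by
  classical
  haveI := PF9.derivedIn_normal M
  haveI := Fintype.ofFinite (derivedIn M)
  have hFM := fittingHallOf_le M
  set N : Subgroup M := (fittingHallOf M).subgroupOf M with hN
  haveI hNn : N.Normal := (Subgroup.normal_subgroupOf_iff_le_normalizer hFM).2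
    (le_normalizer_fittingHallOf M)
  haveI := Fintype.ofFinite N
  letI : CommGroup N :=
    { (inferInstance : Group N) with
      mul_comm := fun a b => Subtype.ext (Subtype.ext (hF _ a.2 _ b.2)) }
  have hNK : N ≤ derivedIn M := fun n hn => Subgroup.mem_subgroupOf.2
    (PF9.F_le_derived hP (Subgroup.mem_subgroupOf.1 hn))
  set N' : Subgroup (derivedIn M) := N.subgroupOf (derivedIn M) with hN'
  haveI : N'.Normal := Subgroup.Normal.subgroupOf hNn _
  haveI := Fintype.ofFinite N'
  -- all non-trivial linear characters of the kernel give members of degree `|W₁||U|`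
  have hindex : N.index = Nat.card W₁ * Nat.card U := by
    have h1 := N.card_mul_index
    have h2 : Nat.card ↥(⁅M, M⁆ : Subgroup G) * Nat.card W₁ = Nat.card M :=
      card_mul_of_isComplIn hP.W₁_compl
        ((PF9.W₁_le hP).trans (PF9.le_normalizer_commutator_self M))
    rw [hN, Nat.card_congr (Subgroup.subgroupOfEquivOfLe hFM).toEquiv, ← h2,
      ← PF9.card_derived hP] at h1
    rw [hN]
    refine Nat.eq_of_mul_eq_mul_left (Nat.card_pos (α := fittingHallOf M)) (h1.trans ?_)
    ring
  have hS : ∀ l : N →* ℂˣ, l ≠ 1 → classInner (fun n : N => f n) (fun n => (l n : ℂ)) = c := by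
    intro l hl
    rw [← CfsgLib.Frobenius.classInner_indFun_right N (fun n => (l n : ℂ)) f hf]
    refine hinner _ ?_ (by
      rw [CfsgLib.Frobenius.indFun_one, map_one, Units.val_one, mul_one, hindex])
    rw [← CfsgLib.Brauer.indFun_indFun_subgroupOf hNK]
    set l' : N' →* ℂˣ := l.comp
      (Subgroup.subgroupOfEquivOfLe hNK).toMonoidHom with hl'
    have hirr : IsIrrCharacter N' (fun n => (l' n : ℂ)) := isIrrCharacter_linear l'
    have hθ : IsIrrCharacter (derivedIn M) (indFun N' fun n => (l' n : ℂ)) := by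
      refine PF13B.isIrr_indFun_of_stab N' hirr fun g => ⟨fun hfix => ?_, fun hg => ?_⟩
      · by_contra hg
        obtain ⟨a, ha, b, hb, he⟩ := hP.U_compl.2.2.2 ((g : M) : G) (Subgroup.mem_subgroupOf.1 g.2)
        have hb1 : b ≠ 1 := fun e => hg (by
          rw [e, mul_one] at he
          exact Subgroup.mem_subgroupOf.2 (Subgroup.mem_subgroupOf.2 (he ▸ ha)))
        let bM : M := ⟨b, PF9.U_le hP hb⟩
        -- `z ↦ z⁻¹ (b⁻¹ z b)` is injective, hence surjective
        let d : N → N := fun z => z⁻¹ * ⟨bM⁻¹ * z * bM, by simpa using hNn.conj_mem _ z.2 bM⁻¹⟩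
        have hd : Function.Injective d := by
          intro z w e
          by_contra hzw
          have e' : ((z : M) : G)⁻¹ * (b⁻¹ * (z : M) * b) = ((w : M) : G)⁻¹ * (b⁻¹ * (w : M) * b) :=
            congrArg (fun n : N => ((n : M) : G)) e
          have hzw' : ((w : M) : G) * ((z : M) : G)⁻¹ ∈ fittingHallOf M :=
            mul_mem (Subgroup.mem_subgroupOf.1 w.2) (inv_mem (Subgroup.mem_subgroupOf.1 z.2))
          have := hfpf b hb hb1 _ hzw' (by
            calc b * (((w : M) : G) * ((z : M) : G)⁻¹)
                = b * ((w : M) : G) * (((z : M) : G)⁻¹ * (b⁻¹ * (z : M) * b)) *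
                    b⁻¹ * ((z : M) : G)⁻¹ * b := by group
              _ = b * ((w : M) : G) * (((w : M) : G)⁻¹ * (b⁻¹ * (w : M) * b)) *
                    b⁻¹ * ((z : M) : G)⁻¹ * b := by rw [e']
              _ = ((w : M) : G) * ((z : M) : G)⁻¹ * b := by group)
          exact hzw (Subtype.ext (Subtype.ext (mul_inv_eq_one.1 this).symm))
        refine hl (MonoidHom.ext fun n => ?_)
        obtain ⟨z, hz⟩ := (Finite.injective_iff_surjective.1 hd) n
        have h1 := congrFun hfix ⟨⟨(z : M), hNK z.2⟩, Subgroup.mem_subgroupOf.2 z.2⟩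
        have hgz : (g : M)⁻¹ * (z : M) * g = bM⁻¹ * (z : M) * bM := by
          refine Subtype.ext ?_
          simp only [Subgroup.coe_mul, InvMemClass.coe_inv, he, bM]
          have := hF _ ha _ (Subgroup.mem_subgroupOf.1 z.2)
          calc (a * b)⁻¹ * ((z : M) : G) * (a * b) = b⁻¹ * (a⁻¹ * ((z : M) * a)) * b := by group
            _ = b⁻¹ * ((z : M) : G) * b := by rw [← this]; group
        simp only [CfsgLib.Frobenius.conjTwist, hl', MonoidHom.coe_comp, Function.comp_apply] at h1
        rw [MonoidHom.one_apply, ← hz, map_mul, map_inv, inv_mul_eq_one]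
        refine (Units.ext h1).symm.trans ?_
        exact congrArg l (Subtype.ext hgz)
      · funext n
        simp only [CfsgLib.Frobenius.conjTwist]
        congr 1
        show l _ = l _
        congr 1
        refine Subtype.ext (Subtype.ext ?_)
        have hgF : ((g : M) : G) ∈ fittingHallOf M :=
          Subgroup.mem_subgroupOf.1 (Subgroup.mem_subgroupOf.1 hg)
        have hnF : (((n : derivedIn M) : M) : G) ∈ fittingHallOf M :=
          Subgroup.mem_subgroupOf.1 (Subgroup.mem_subgroupOf.1 n.2)
        show ((g : M) : G)⁻¹ * (((n : derivedIn M) : M) : G) * (g : M) = _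
        rw [mul_assoc, hF _ hnF _ hgF, inv_mul_cancel_left]
        rfl
    refine ⟨_, hθ, fun k hk => ?_, ?_, rfl⟩
    · rw [show k = 1 from Subtype.ext (Subtype.ext (Subgroup.mem_bot.1 hk))]
    · by_contra hc
      push Not at hc
      refine hl (MonoidHom.ext fun n => Units.ext ?_)
      have hres : classInner (fun m : N' => indFun N' (fun n => (l' n : ℂ)) m)
          (fun n => (l' n : ℂ)) ≠ 0 := by
        rw [PF13B.inner_restrict_indFun, classInner_self_of_isIrr hθ]
        exact one_ne_zero
      have h2 := CfsgLib.Coherence.constituent_apply_eq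
        (CfsgLib.Coherence.isCharacter_comp (IsIrrCharacter.isCharacter hθ) N'.subtype) hirr hres
        (g := ⟨⟨(n : M), hNK n.2⟩, Subgroup.mem_subgroupOf.2 n.2⟩)
        (hc _ (Subgroup.mem_subgroupOf.1 n.2))
      rw [map_one, Units.val_one] at h2
      rw [MonoidHom.one_apply, Units.val_one]
      exact h2
  -- inversion on the kernel
  have key : ∀ a : N, a ≠ 1 →
      f a = classInner (fun n : N => f n) (fun _ => (1 : ℂ)) - c := by
    intro a ha
    have h1 : ∑ l : N →* ℂˣ, (l a : ℂ) * classInner (fun n : N => f n) (fun n => (l n : ℂ)) =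
        f a := by
      have e : ∀ n : N, ∑ l : N →* ℂˣ, (l a : ℂ) * (f n * (starRingEnd ℂ) (l n : ℂ)) =
          if n = a then (Nat.card N : ℂ) * f a else 0 := by
        intro n
        have : ∀ l : N →* ℂˣ, (l a : ℂ) * (f n * (starRingEnd ℂ) (l n : ℂ)) =
            f n * (l (a * n⁻¹) : ℂ) := fun l => by
          rw [CfsgLib.Coherence.conj_apply, MonoidHom.inv_apply, map_mul, map_inv, Units.val_mul]
          ring
        rw [Finset.sum_congr rfl fun l _ => this l, ← Finset.mul_sum,
          CfsgLib.Brauer.sum_homUnits_apply]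
        by_cases hn : n = a
        · rw [if_pos (mul_inv_eq_one.2 hn.symm), if_pos hn, hn, mul_comm]
        · rw [if_neg fun e => hn (mul_inv_eq_one.1 e).symm, if_neg hn, mul_zero]
      simp only [classInner, Finset.mul_sum]
      rw [Finset.sum_comm]
      simp only [mul_left_comm ((_ : ℂˣ) : ℂ) ((Nat.card N : ℂ)⁻¹)]
      simp only [← Finset.mul_sum, e, Finset.sum_ite_eq', Finset.mem_univ, if_true]
      rw [inv_mul_cancel_left₀ (Nat.cast_ne_zero.2 Nat.card_pos.ne')]
    rw [← h1, ← Finset.add_sum_erase _ _ (Finset.mem_univ (1 : N →* ℂˣ)),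
      Finset.sum_congr rfl fun l hl => by rw [hS l (Finset.ne_of_mem_erase hl)],
      ← Finset.sum_mul]
    have h0 := CfsgLib.Brauer.sum_homUnits_apply a
    rw [if_neg ha, ← Finset.add_sum_erase _ _ (Finset.mem_univ (1 : N →* ℂˣ)),
      MonoidHom.one_apply, Units.val_one] at h0
    rw [show (∑ l ∈ (Finset.univ : Finset (N →* ℂˣ)).erase 1, (l a : ℂ)) = -1 by
      linear_combination h0]
    simp [sub_eq_add_neg]
  have hkx := key ⟨x, Subgroup.mem_subgroupOf.2 hx⟩ fun e => hx1 (congrArg Subtype.val e)
  have hky := key ⟨y, Subgroup.mem_subgroupOf.2 hy⟩ fun e => hy1 (congrArg Subtype.val e)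
  exact hkx.trans hky.symm

end CfsgLib.FT.Short
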